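import Mathlib

/-!
# Quadratic elements and the relation `(a b a)² = 1` (ring form and `MulAut` form)
-/

set_option autoImplicit false

namespace Cfsg.Agent.Lib.Helper74.Quad

/-- In a ring where an odd number is zero: `n² = m² = 0` and `((1+n)(1+m)(1+n))² = 1` force
`(1+m)(1+n)² = 1`. -/
theorem ring_quad {R : Type*} [Ring R] (k : ℕ) (hk : ((2 * k + 1 : ℕ) : R) = 0) (n m : R)
    (hn : n * n = 0) (hm : m * m = 0)
    (h : ((1 + n) * (1 + m) * (1 + n)) * ((1 + n) * (1 + m) * (1 + n)) = 1) :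
    (1 + m) * (1 + n) * (1 + n) = 1 := by
  have hn1 : (1 + n) * (1 - n) = 1 := by
    have : (1 + n) * (1 - n) = 1 - n * n := by noncomm_ring
    rw [this, hn, sub_zero]
  have hm1 : (1 + m) * (1 - m) = 1 := by
    have : (1 + m) * (1 - m) = 1 - m * m := by noncomm_ring
    rw [this, hm, sub_zero]
  -- S * S' = 1
  have hSS' : ((1 + n) * (1 + m) * (1 + n)) * ((1 - n) * (1 - m) * (1 - n)) = 1 := by
    calc ((1 + n) * (1 + m) * (1 + n)) * ((1 - n) * (1 - m) * (1 - n))
        = (1 + n) * ((1 + m) * (((1 + n) * (1 - n)) * (1 - m))) * (1 - n) := by noncomm_ring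
      _ = (1 + n) * ((1 + m) * (1 - m)) * (1 - n) := by rw [hn1, one_mul]
      _ = 1 := by rw [hm1, mul_one, hn1]
  have hEq : (1 - n) * (1 - m) * (1 - n) = (1 + n) * (1 + m) * (1 + n) := by
    calc (1 - n) * (1 - m) * (1 - n)
        = (((1 + n) * (1 + m) * (1 + n)) * ((1 + n) * (1 + m) * (1 + n))) *
            ((1 - n) * (1 - m) * (1 - n)) := by rw [h, one_mul]
      _ = ((1 + n) * (1 + m) * (1 + n)) *
            (((1 + n) * (1 + m) * (1 + n)) * ((1 - n) * (1 - m) * (1 - n))) := by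
          rw [mul_assoc]
      _ = (1 + n) * (1 + m) * (1 + n) := by rw [hSS', mul_one]
  -- 2 (2n + m + nmn) = 0
  have h2 : (2 : R) * (2 * n + m + n * m * n) = 0 := by
    have e1 : (1 + n) * (1 + m) * (1 + n) - (1 - n) * (1 - m) * (1 - n)
        = 2 * (2 * n + m + n * m * n) := by noncomm_ring
    rw [hEq, sub_self] at e1
    exact e1.symm
  have h3 : 2 * n + m + n * m * n = 0 := by
    have e : ((2 * k + 1 : ℕ) : R) * (2 * n + m + n * m * n) = 0 := by rw [hk, zero_mul]
    have e2 : (2 * n + m + n * m * n) =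
        ((k + 1 : ℕ) : R) * ((2 : R) * (2 * n + m + n * m * n)) -
          ((2 * k + 1 : ℕ) : R) * (2 * n + m + n * m * n) := by
      push_cast
      noncomm_ring
    rw [e2, h2, e, mul_zero, sub_zero]
  have hnm : n * m = 0 := by
    have e : n * (2 * n + m + n * m * n) = 2 * (n * n) + n * m + (n * n) * m * n := by
      noncomm_ring
    rw [h3, mul_zero, hn] at e
    simpa using e.symm
  have hm' : m = -(2 * n) := by
    have : n * m * n = 0 := by rw [hnm, zero_mul]
    rw [this, add_zero] at h3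
    exact eq_neg_of_add_eq_zero_right h3
  rw [hm']
  have : (1 + -(2 * n)) * (1 + n) * (1 + n) = 1 - 3 * (n * n) - 2 * (n * n) * n := by
    noncomm_ring
  rw [this, hn]
  simp

end Cfsg.Agent.Lib.Helper74.Quad
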