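import Mathlib
import Cfsg.Agent.Lib.Helper74.Quad.Ring

/-!
# Quadratic automorphisms of an abelian group of odd prime exponent
-/

set_option autoImplicit false

namespace Cfsg.Agent.Lib.Helper74.Quad

variable {A : Type*} [CommGroup A]

/-- The additive endomorphism attached to an automorphism. -/
def toEnd (α : MulAut A) : AddMonoid.End (Additive A) :=
  MonoidHom.toAdditive α.toMonoidHom

theorem toEnd_apply (α : MulAut A) (x : Additive A) :
    toEnd α x = Additive.ofMul (α x.toMul) := rfl

theorem toEnd_mul (α β : MulAut A) : toEnd (α * β) = toEnd α * toEnd β := by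
  ext x
  rfl

theorem toEnd_one : toEnd (1 : MulAut A) = 1 := by
  ext x
  rfl

theorem toEnd_injective : Function.Injective (toEnd : MulAut A → AddMonoid.End (Additive A)) := by
  intro α β h
  ext v
  have := DFunLike.congr_fun h (Additive.ofMul v)
  exact this

theorem toEnd_quad (α : MulAut A) (hα : ∀ v : A, α (α v / v) = α v / v) :
    (toEnd α - 1) * (toEnd α - 1) = 0 := by
  ext x
  have h := hα x.toMul
  have h' : toEnd α (toEnd α x - x) = toEnd α x - x := by
    exact congrArg Additive.ofMul h
  show (toEnd α - 1) ((toEnd α - 1) x) = 0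
  have e : (toEnd α - 1) x = toEnd α x - x := rfl
  rw [e]
  have e2 : (toEnd α - 1) (toEnd α x - x) = toEnd α (toEnd α x - x) - (toEnd α x - x) := rfl
  rw [e2, h', sub_self]

/-- Quadratic automorphisms `α, β` of an abelian group of odd exponent `2k+1` with
`(α β α)² = 1` satisfy `β α² = 1`. -/
theorem quad_rel (k : ℕ) (hA : ∀ x : A, x ^ (2 * k + 1) = 1) (α β : MulAut A)
    (hα : ∀ v : A, α (α v / v) = α v / v) (hβ : ∀ v : A, β (β v / v) = β v / v)
    (h : (α * β * α) * (α * β * α) = 1) : β * α * α = 1 := by
  apply toEnd_injective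
  rw [toEnd_mul, toEnd_mul, toEnd_one]
  have hk : ((2 * k + 1 : ℕ) : AddMonoid.End (Additive A)) = 0 := by
    ext x
    rw [AddMonoid.End.natCast_apply]
    show Additive.ofMul (x.toMul ^ (2 * k + 1)) = 0
    rw [hA]
    rfl
  have hn := toEnd_quad α hα
  have hm := toEnd_quad β hβ
  have e1 : ∀ γ : MulAut A, toEnd γ = 1 + (toEnd γ - 1) := fun γ => by abel
  have h' := congrArg toEnd h
  rw [toEnd_mul, toEnd_mul, toEnd_mul, toEnd_one, e1 α, e1 β] at h'
  have := ring_quad k hk (toEnd α - 1) (toEnd β - 1) hn hm h'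
  rw [← e1 α, ← e1 β] at this
  exact this

/-- A quadratic automorphism of an abelian group of exponent `p` has order dividing `p`. -/
theorem quad_pow (p : ℕ) (hA : ∀ x : A, x ^ p = 1) (α : MulAut A)
    (hα : ∀ v : A, α (α v / v) = α v / v) : α ^ p = 1 := by
  have key : ∀ (j : ℕ) (v : A), (α ^ j) v = v * (α v / v) ^ j := by
    intro j
    induction j with
    | zero => intro v; simp
    | succ j ih =>
      intro v
      rw [pow_succ', MulAut.mul_apply, ih, map_mul, map_pow, hα, pow_succ]
      have e : v * (α v / v) = α v := mul_div_cancel v (α v)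
      rw [mul_comm ((α v / v) ^ j), ← mul_assoc, e]
  ext v
  rw [key, hA, mul_one]
  rfl

end Cfsg.Agent.Lib.Helper74.Quad
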