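import Mathlib
import Cfsg.Prelude.Def_Transfer
import Cfsg.Agent.Lib.Helper51.QdLin

/-!
# S2787 (no quadratic action for `PSL₂(odd)` / Ree): interface

`conjHom V H hHV : ↥H →* MulAut ↥V` is the conjugation action of `H ≤ N_G(V)` on `V`.
Package statements `PkgPSL2`, `PkgOrd4`, `PkgNS`.
-/

set_option autoImplicit false

namespace Cfsg.Agent.Lib.Helper74.Quad

universe u v

/-- The conjugation action of `H ≤ N_G(V)` on `V`. -/
def conjHom {G : Type*} [Group G] (V H : Subgroup G)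
    (hHV : H ≤ Subgroup.normalizer (V : Set G)) : ↥H →* MulAut ↥V where
  toFun h :=
    { toFun := fun v => ⟨(h : G) * v * (h : G)⁻¹,
        (Subgroup.mem_normalizer_iff.mp (hHV h.2) v).mp v.2⟩
      invFun := fun v => ⟨(h : G)⁻¹ * v * (h : G), by
        have := (Subgroup.mem_normalizer_iff.mp (hHV (H.inv_mem h.2)) v).mp v.2
        simpa using this⟩
      left_inv := fun v => Subtype.ext (by simp [mul_assoc])
      right_inv := fun v => Subtype.ext (by simp [mul_assoc])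
      map_mul' := fun v w => Subtype.ext (by simp [mul_assoc]) }
  map_one' := by
    ext v
    simp
  map_mul' := fun h k => by
    ext v
    simp [mul_assoc]

theorem conjHom_apply {G : Type*} [Group G] (V H : Subgroup G)
    (hHV : H ≤ Subgroup.normalizer (V : Set G)) (h : ↥H) (v : ↥V) :
    ((conjHom V H hHV h v : ↥V) : G) = (h : G) * v * (h : G)⁻¹ := rfl

/-- **[PSL2]** In `PSL₂(F)`, `F` finite of odd characteristic `p`, every element `u ≠ 1` with
`u ^ p = 1` has a conjugate `v = k u k⁻¹` with `(u v u)² = 1` and `v u² ≠ 1`. -/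
def PkgPSL2 : Prop :=
  ∀ (F : Type) [Field F] [Fintype F] (p : ℕ) [Fact p.Prime] [CharP F p], p ≠ 2 →
    ∀ u : Matrix.ProjectiveSpecialLinearGroup (Fin 2) F, u ≠ 1 → u ^ p = 1 →
      ∃ k : Matrix.ProjectiveSpecialLinearGroup (Fin 2) F,
        (u * (k * u * k⁻¹) * u) * (u * (k * u * k⁻¹) * u) = 1 ∧ (k * u * k⁻¹) * u * u ≠ 1

/-- **[ORD4]** Two elements acting on an `𝔽_p²` inside `A` as `[[1, c], [0, 1]]` and
`[[1, 0], [1, 1]]` (`p` odd, `p ∤ c`) give an element `w` all of whose powers acting trivially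
on `A` have exponent divisible by `4`. -/
def PkgOrd4 : Prop :=
  ∀ (p : ℕ) [Fact p.Prime], p ≠ 2 → ∀ (A : Type u) [CommGroup A] (M : Type v) [Group M]
    (ρ : M →* MulAut A) (g₁ g₂ : M) (c : ℕ) (FA : Multiplicative (Fin 2 → ZMod p) →* A),
    ¬ p ∣ c → Function.Injective FA →
    (∀ w : Multiplicative (Fin 2 → ZMod p), ρ g₁ (FA w) =
      FA (Multiplicative.ofAdd ((Cfsg.Agent.Lib.Helper51.xmat (c : ZMod p)).1.mulVec w.toAdd))) →
    (∀ w : Multiplicative (Fin 2 → ZMod p), ρ g₂ (FA w) =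
      FA (Multiplicative.ofAdd ((Cfsg.Agent.Lib.Helper51.ymat (ZMod p)).1.mulVec w.toAdd))) →
    ∃ w : M, ∀ k : ℕ, ρ (w ^ k) = 1 → 4 ∣ k

/-- **[NS]** If `H` acts irreducibly on the elementary abelian `p`-group `V`, a normal subgroup
of `H` all of whose elements act on `V` with `p`-power order centralizes `V`. -/
def PkgNS : Prop :=
  ∀ (G : Type u) [Group G] [Finite G] (p : ℕ) [Fact p.Prime] (V H : Subgroup G),
    Cfsg.IsElementaryAbelian p V → ∀ (hHV : H ≤ Subgroup.normalizer (V : Set G)),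
    (∀ U : Subgroup G, U ≤ V → H ≤ Subgroup.normalizer (U : Set G) → U = ⊥ ∨ U = V) →
    ∀ D : Subgroup ↥H, D.Normal → (∀ d ∈ D, ∃ k : ℕ, conjHom V H hHV d ^ p ^ k = 1) →
      ∀ d ∈ D, (d : G) ∈ Subgroup.centralizer (V : Set G)

end Cfsg.Agent.Lib.Helper74.Quad
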