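import Mathlib
import Cfsg.Agent.Lib.Helper74.Quad.Defs
import Cfsg.Agent.Lib.Helper74.Quad.Aut

/-!
# S2787: setup lemmas for the conjugation action `conjHom`
-/

set_option autoImplicit false

namespace Cfsg.Agent.Lib.Helper74.Quad

open scoped commutatorElement

variable {G : Type*} [Group G]

theorem conjHom_eq_one_iff (V H : Subgroup G) (hHV : H ≤ Subgroup.normalizer (V : Set G))
    (h : ↥H) : conjHom V H hHV h = 1 ↔ (h : G) ∈ Subgroup.centralizer (V : Set G) := by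
  constructor
  · intro e
    rw [Subgroup.mem_centralizer_iff]
    intro v hv
    have h1 := congrArg (fun f : MulAut ↥V => ((f ⟨v, hv⟩ : ↥V) : G)) e
    have h2 : (h : G) * v * (h : G)⁻¹ = v := h1
    calc v * (h : G) = ((h : G) * v * (h : G)⁻¹) * (h : G) := by rw [h2]
      _ = (h : G) * v := by group
  · intro hc
    rw [Subgroup.mem_centralizer_iff] at hc
    ext v
    show (h : G) * v * (h : G)⁻¹ = v
    rw [← hc v v.2, mul_inv_cancel_right]

theorem conjHom_quad (V H : Subgroup G) (hHV : H ≤ Subgroup.normalizer (V : Set G))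
    (A : Subgroup G) (hquad : ⁅⁅V, A⁆, A⁆ = ⊥) (a : ↥H) (haA : (a : G) ∈ A) (v : ↥V) :
    conjHom V H hHV a (conjHom V H hHV a v / v) = conjHom V H hHV a v / v := by
  apply Subtype.ext
  rw [conjHom_apply, Subgroup.coe_div, conjHom_apply]
  have h1 : ⁅⁅(v : G), (a : G)⁆, (a : G)⁆ = 1 := by
    have : ⁅⁅(v : G), (a : G)⁆, (a : G)⁆ ∈ ⁅⁅V, A⁆, A⁆ :=
      Subgroup.commutator_mem_commutator (Subgroup.commutator_mem_commutator v.2 haA) haA
    rw [hquad] at this
    exact Subgroup.mem_bot.mp this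
  have hc : Commute ⁅(a : G), (v : G)⁆ (a : G) := by
    have := (commutatorElement_eq_one_iff_commute.mp h1).inv_left
    rwa [commutatorElement_inv] at this
  have e : (a : G) * (v : G) * (a : G)⁻¹ / (v : G) = ⁅(a : G), (v : G)⁆ := by
    rw [div_eq_mul_inv, commutatorElement_def]
  rw [e, ← hc.eq, mul_inv_cancel_right]

theorem exists_noncentral (V A : Subgroup G) (hne : ⁅V, A⁆ ≠ ⊥) :
    ∃ a ∈ A, a ∉ Subgroup.centralizer (V : Set G) := by
  by_contra hcon
  push Not at hcon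
  apply hne
  rw [Subgroup.commutator_eq_bot_iff_le_centralizer]
  intro v hv
  rw [Subgroup.mem_centralizer_iff]
  intro a ha
  have := hcon a ha
  rw [Subgroup.mem_centralizer_iff] at this
  exact (this v hv).symm

/-- Quadratic action is invariant under conjugation. -/
theorem quad_conj {A : Type*} [CommGroup A] (α γ : MulAut A)
    (hα : ∀ v : A, α (α v / v) = α v / v) (v : A) :
    (γ * α * γ⁻¹) ((γ * α * γ⁻¹) v / v) = (γ * α * γ⁻¹) v / v := by
  have h3 : γ (γ⁻¹ v) = v := by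
    rw [← MulAut.mul_apply, mul_inv_cancel]; rfl
  have h4 : (γ * α * γ⁻¹) v / v = γ (α (γ⁻¹ v) / γ⁻¹ v) := by
    rw [map_div, h3]; rfl
  rw [h4]
  have h5 : (γ * α * γ⁻¹) (γ (α (γ⁻¹ v) / γ⁻¹ v)) = γ (α (α (γ⁻¹ v) / γ⁻¹ v)) := by
    have : γ⁻¹ (γ (α (γ⁻¹ v) / γ⁻¹ v)) = α (γ⁻¹ v) / γ⁻¹ v := by
      rw [← MulAut.mul_apply, inv_mul_cancel]; rfl
    rw [MulAut.mul_apply, MulAut.mul_apply, this]
  rw [h5, hα]

end Cfsg.Agent.Lib.Helper74.Quad
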